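import Cfsg.Agent.Lib.Golay.Core
import Cfsg.Agent.Lib.Classical.HermOrders

/-!
# Codes of the field with 25 elements

The field with 25 elements is coded by numbers `a + 5 b` below 25, standing for `a + b r` with `r² = 2`, with a
homomorphism to any field `K` with 25 elements.
-/

set_option autoImplicit false
set_option linter.style.longLine false
set_option linter.unusedSectionVars false

namespace Cfsg.Agent.Lib.U35Iso

open Cfsg Cfsg.Agent.Lib.Golay.Core
open scoped Matrix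

def addC (x y : ℕ) : ℕ := (x % 5 + y % 5) % 5 + 5 * ((x / 5 + y / 5) % 5)
def mulC (x y : ℕ) : ℕ :=
  ((x % 5) * (y % 5) + 2 * ((x / 5) * (y / 5))) % 5 + 5 * (((x % 5) * (y / 5) + (x / 5) * (y % 5)) % 5)
def frobC (x : ℕ) : ℕ := mulC x (mulC (mulC x x) (mulC x x))

/-- Entries of packed matrices. -/
def e (N a b : ℕ) : ℕ := Nat.land (Nat.shiftRight N (8 * (3 * a + b))) 255
/-- Entries of packed vectors. -/
def vv (V a : ℕ) : ℕ := Nat.land (Nat.shiftRight V (8 * a)) 255

/-- Matrix times vector, one coordinate. -/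
def mvi (N V a : ℕ) : ℕ :=
  addC (addC (mulC (e N a 0) (vv V 0)) (mulC (e N a 1) (vv V 1))) (mulC (e N a 2) (vv V 2))

/-- The form on codes. -/
def hC2 (u v : ℕ) : ℕ :=
  addC (addC (mulC (vv u 0) (frobC (vv v 0))) (mulC (vv u 1) (frobC (vv v 1)))) (mulC (vv u 2) (frobC (vv v 2)))

/-- The form on columns. -/
def orthB (A : ℕ) : Bool :=
  allUpTo (fun b => allUpTo (fun c => Nat.beq (addC (addC (mulC (e A 0 b) (frobC (e A 0 c))) (mulC (e A 1 b) (frobC (e A 1 c))))
    (mulC (e A 2 b) (frobC (e A 2 c)))) (if b = c then 1 else 0)) 3) 3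

/-- The determinant. -/
def detC (N : ℕ) : ℕ :=
  addC (addC (addC (addC (addC (mulC (mulC (e N 0 0) (e N 1 1)) (e N 2 2))
    (mulC 4 (mulC (mulC (e N 0 0) (e N 1 2)) (e N 2 1))))
    (mulC 4 (mulC (mulC (e N 0 1) (e N 1 0)) (e N 2 2))))
    (mulC (mulC (e N 0 1) (e N 1 2)) (e N 2 0)))
    (mulC (mulC (e N 0 2) (e N 1 0)) (e N 2 1)))
    (mulC 4 (mulC (mulC (e N 0 2) (e N 1 1)) (e N 2 0)))

theorem addC_lt (x y : ℕ) : addC x y < 25 := by
  unfold addC
  omega

theorem inj_code : ∀ x < 25, ∀ y < 25, addC x (mulC 4 y) = 0 → x = y := by decide +kernel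
theorem inv_code : ∀ s < 25, s ≠ 0 → (List.range 25).any (fun t => Nat.beq (mulC s t) 1) = true := by decide +kernel

section K

variable {K : Type*} [Field K]

/-- The value of a code. -/
def φ (r : K) (x : ℕ) : K := ((x % 5 : ℕ) : K) + ((x / 5 : ℕ) : K) * r

theorem cast_mod (h5 : (5 : K) = 0) (n : ℕ) : ((n % 5 : ℕ) : K) = (n : K) := by
  have h := Nat.div_add_mod n 5
  have h2 := congrArg (Nat.cast : ℕ → K) h
  push_cast at h2
  rw [h5, zero_mul, zero_add] at h2
  exact h2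

variable {r : K} (hr : r * r = 2) (h5 : (5 : K) = 0)
include hr h5

theorem φ_add (x y : ℕ) : φ r (addC x y) = φ r x + φ r y := by
  unfold φ addC
  have e1 : ((x % 5 + y % 5) % 5 + 5 * ((x / 5 + y / 5) % 5)) % 5 = (x % 5 + y % 5) % 5 := by omega
  have e2 : ((x % 5 + y % 5) % 5 + 5 * ((x / 5 + y / 5) % 5)) / 5 = (x / 5 + y / 5) % 5 := by omega
  rw [e1, e2, cast_mod h5, cast_mod h5]
  push_cast
  ring

theorem φ_mul (x y : ℕ) : φ r (mulC x y) = φ r x * φ r y := by
  unfold φ mulC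
  set a := x % 5
  set b := x / 5
  set c := y % 5
  set d := y / 5
  have e1 : ((a * c + 2 * (b * d)) % 5 + 5 * ((a * d + b * c) % 5)) % 5 = (a * c + 2 * (b * d)) % 5 := by omega
  have e2 : ((a * c + 2 * (b * d)) % 5 + 5 * ((a * d + b * c) % 5)) / 5 = (a * d + b * c) % 5 := by omega
  rw [e1, e2, cast_mod h5, cast_mod h5]
  push_cast
  linear_combination (-((b : K) * d)) * hr

theorem φ_frob (x : ℕ) : φ r (frobC x) = φ r x ^ 5 := by
  unfold frobC
  rw [φ_mul hr h5, φ_mul hr h5, φ_mul hr h5]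
  ring

theorem φ_one : φ r 1 = 1 := by
  simp [φ]

theorem φ_zero : φ r 0 = 0 := by
  simp [φ]

theorem φ_four : φ r 4 = -1 := by
  have : φ r 4 = 4 := by simp [φ]
  rw [this]
  linear_combination h5

/-- The map on codes is injective. -/
theorem φ_inj {x y : ℕ} (hx : x < 25) (hy : y < 25) (h : φ r x = φ r y) : x = y := by
  apply inj_code x hx y hy
  set s := addC x (mulC 4 y) with hs
  have hs0 : φ r s = 0 := by
    rw [hs, φ_add hr h5, φ_mul hr h5, φ_four hr h5, h]
    ring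
  have hlt : s < 25 := addC_lt _ _
  by_contra hne
  have h2 := inv_code s hlt hne
  simp only [List.any_eq_true] at h2
  obtain ⟨t, -, ht⟩ := h2
  have h3 := congrArg (φ r) (Nat.eq_of_beq_eq_true ht)
  rw [φ_mul hr h5, hs0, zero_mul, φ_one hr h5] at h3
  exact zero_ne_one h3

/-- The map on codes is onto, if `K` has 25 elements. -/
theorem φ_surj [Fintype K] (hK : Fintype.card K = 25) (k : K) : ∃ x < 25, φ r x = k := by
  let f : Fin 25 → K := fun x => φ r x.1
  have hf : Function.Injective f := fun a b h => Fin.ext (φ_inj hr h5 a.2 b.2 h)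
  have hb : Function.Bijective f := (Fintype.bijective_iff_injective_and_card f).2 ⟨hf, by simp [hK]⟩
  obtain ⟨x, hx⟩ := hb.2 k
  exact ⟨x.1, x.2, hx⟩

omit hr h5 in
/-- The matrix of a code. -/
def toK (r : K) (N : ℕ) : Matrix (Fin 3) (Fin 3) K := Matrix.of fun a b : Fin 3 => φ r (e N a.1 b.1)

omit hr h5 in
/-- The vector of a code. -/
def toV (r : K) (V : ℕ) : Fin 3 → K := fun a => φ r (vv V a.1)

theorem mv_toV (N V : ℕ) (a : Fin 3) : (toK r N *ᵥ toV r V) a = φ r (mvi N V a.1) := by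
  unfold mvi
  simp only [φ_add hr h5, φ_mul hr h5]
  rw [Matrix.mulVec, dotProduct, Fin.sum_univ_three]
  rfl

theorem herm_code (u v : ℕ) : hermForm 3 K 5 (toV r u) (toV r v) = φ r (hC2 u v) := by
  unfold hermForm hC2
  rw [Fin.sum_univ_three]
  simp only [φ_add hr h5, φ_mul hr h5, φ_frob hr h5]
  rfl

theorem herm_ne {u v : ℕ} (h : (!(Nat.beq (hC2 u v) 0)) = true) : hermForm 3 K 5 (toV r u) (toV r v) ≠ 0 := by
  rw [herm_code hr h5]
  intro h0
  have h1 : φ r (hC2 u v) = φ r 0 := by rw [h0, φ_zero hr h5]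
  have h2 : hC2 u v = 0 := φ_inj hr h5 (addC_lt _ _) (by norm_num) h1
  rw [h2] at h
  exact absurd h (by decide)

theorem herm_zero {u v : ℕ} (h : Nat.beq (hC2 u v) 0 = true) : hermForm 3 K 5 (toV r u) (toV r v) = 0 := by
  rw [herm_code hr h5, Nat.eq_of_beq_eq_true h, φ_zero hr h5]

/-- Fifth powers of sums. -/
theorem pow_add (x y z : K) : (x + y + z) ^ 5 = x ^ 5 + y ^ 5 + z ^ 5 := by
  linear_combination (x ^ 4 * y + x ^ 4 * z + x * y ^ 4 + y ^ 4 * z + x * z ^ 4 + y * z ^ 4 + 2 * x ^ 3 * y ^ 2 + 2 * x ^ 3 * z ^ 2 +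
    2 * x ^ 2 * y ^ 3 + 2 * y ^ 3 * z ^ 2 + 2 * x ^ 2 * z ^ 3 + 2 * y ^ 2 * z ^ 3 + 4 * x ^ 3 * y * z + 4 * x * y ^ 3 * z + 4 * x * y * z ^ 3 +
    6 * x ^ 2 * y ^ 2 * z + 6 * x ^ 2 * y * z ^ 2 + 6 * x * y ^ 2 * z ^ 2) * h5

/-- A code with orthonormal columns preserves the form. -/
theorem iso_of_orth {N : ℕ} (hN : orthB N = true) (u v : Fin 3 → K) :
    hermForm 3 K 5 (toK r N *ᵥ u) (toK r N *ᵥ v) = hermForm 3 K 5 u v := by
  have H := pow_add hr h5
  have key : ∀ b c : Fin 3, toK r N 0 b * (toK r N 0 c) ^ 5 + toK r N 1 b * (toK r N 1 c) ^ 5 + toK r N 2 b * (toK r N 2 c) ^ 5 =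
      if b = c then 1 else 0 := by
    intro b c
    have h1 := Nat.eq_of_beq_eq_true (allUpTo_iff.mp (allUpTo_iff.mp hN b.1 b.2) c.1 c.2)
    have h2 := congrArg (φ r) h1
    simp only [φ_add hr h5, φ_mul hr h5, φ_frob hr h5] at h2
    have h4 : φ r (if b.1 = c.1 then 1 else 0) = if b = c then 1 else 0 := by
      by_cases h : b = c
      · subst h
        simp [φ_one hr h5]
      · have : b.1 ≠ c.1 := fun h' => h (Fin.ext h')
        simp [h, this, φ_zero hr h5]
    rw [h4] at h2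
    exact h2
  have h00 := key 0 0
  have h01 := key 0 1
  have h02 := key 0 2
  have h10 := key 1 0
  have h11 := key 1 1
  have h12 := key 1 2
  have h20 := key 2 0
  have h21 := key 2 1
  have h22 := key 2 2
  simp only [Fin.isValue, Fin.reduceEq, if_false, if_true] at h00 h01 h02 h10 h11 h12 h20 h21 h22
  generalize toK r N = X at *
  simp only [hermForm, Matrix.mulVec, dotProduct, Fin.sum_univ_three, H, mul_pow]
  linear_combination u 0 * (v 0) ^ 5 * h00 + u 0 * (v 1) ^ 5 * h01 + u 0 * (v 2) ^ 5 * h02 +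
    u 1 * (v 0) ^ 5 * h10 + u 1 * (v 1) ^ 5 * h11 + u 1 * (v 2) ^ 5 * h12 +
    u 2 * (v 0) ^ 5 * h20 + u 2 * (v 1) ^ 5 * h21 + u 2 * (v 2) ^ 5 * h22

theorem det_toK {N : ℕ} (h : detC N = 1) : (toK r N).det = 1 := by
  have h1 := congrArg (φ r) h
  unfold detC at h1
  simp only [φ_add hr h5, φ_mul hr h5, φ_four hr h5, φ_one hr h5] at h1
  rw [Matrix.det_fin_three]
  show φ r (e N 0 0) * φ r (e N 1 1) * φ r (e N 2 2) - φ r (e N 0 0) * φ r (e N 1 2) * φ r (e N 2 1) -
    φ r (e N 0 1) * φ r (e N 1 0) * φ r (e N 2 2) + φ r (e N 0 1) * φ r (e N 1 2) * φ r (e N 2 0) +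
    φ r (e N 0 2) * φ r (e N 1 0) * φ r (e N 2 1) - φ r (e N 0 2) * φ r (e N 1 1) * φ r (e N 2 0) = 1
  linear_combination h1

end K

section Exists

variable {K : Type*} [Field K] [Fintype K] (hK : Fintype.card K = 25)
include hK

theorem five_zero : (5 : K) = 0 := by
  have h : Nat.card K • (1 : K) = 0 := card_nsmul_eq_zero'
  rw [Nat.card_eq_fintype_card, hK] at h
  have h2 : (5 : K) * 5 = 0 := by
    rw [← h]
    norm_num
  simpa using h2

theorem exists_r : ∃ r : K, r * r = 2 := by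
  have h5 := five_zero hK
  have h2 : (2 : K) ≠ 0 := by
    intro h
    have h1 : (1 : K) = 5 - 2 * 2 := by ring
    rw [h5, h] at h1
    simp at h1
  have hc : ringChar K ≠ 2 := by
    intro h
    have := ringChar.Nat.cast_ringChar (R := K)
    rw [h] at this
    exact h2 (by exact_mod_cast this)
  have h3 : IsSquare (2 : K) := by
    rw [FiniteField.isSquare_iff hc h2, hK]
    show (2 : K) ^ 12 = 1
    linear_combination 819 * h5
  obtain ⟨r, hr⟩ := h3
  exact ⟨r, hr.symm⟩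

theorem card_PSU35 : Nat.card (PSU 3 K 5) = 126000 := by
  have hF : Fintype.card K = 5 ^ 2 := by rw [hK]; norm_num
  have h := Cfsg.Agent.Lib.Classical.HermOrders.card_PSU hF 3 (by norm_num)
  have e1 : ∏ i ∈ Finset.range 3, (if Even i then 5 ^ (i + 1) + 1 else 5 ^ (i + 1) - 1) = 18144 := by
    decide
  rw [e1] at h
  norm_num at h
  omega

end Exists

end Cfsg.Agent.Lib.U35Iso
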