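import Cfsg.Agent.Lib.LeechP.HS
import Cfsg.Agent.Lib.Leech.CertO352
import Cfsg.Agent.Lib.Cores.Codes
import Cfsg.Agent.Lib.Schur.CoverC
import Cfsg.Agent.Lib.U35Iso.Data

/-!
# A stabiliser in `HS` of one of the 352 vectors
-/

set_option autoImplicit false
set_option maxRecDepth 100000

namespace Cfsg.Agent.Lib.U35Iso

open Cfsg Subgroup MulAction
open Cfsg.Agent.Lib.Golay.Core Cfsg.Agent.Lib.Leech.Basic Cfsg.Agent.Lib.Leech.Lat
  Cfsg.Agent.Lib.Leech.Vec Cfsg.Agent.Lib.Leech.Reach Cfsg.Agent.Lib.Leech.Word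
  Cfsg.Agent.Lib.Leech.Cert Cfsg.Agent.Lib.Leech.Packed _root_.Cfsg.Agent.Lib.PermComp _root_.Cfsg.Agent.Lib.PermComp.Core
  Cfsg.Agent.Lib.Leech.ConfigB Cfsg.Agent.Lib.Leech.ConfigH Cfsg.Agent.Lib.Leech.CertData
  Cfsg.Agent.Lib.Leech.CertBase Cfsg.Agent.Lib.Leech.CertLev Cfsg.Agent.Lib.Leech.CertRefs
  Cfsg.Agent.Lib.LeechP Cfsg.Agent.Lib.U35Iso.Data Cfsg.Agent.Lib.Leech Cfsg.Agent.Lib.Leech.Order

local notation "RR" => Rep 9 511 (Equiv.refl (Fin 352))
local notation "RH" => Cfsg.Agent.Lib.Leech.CertC100.R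

/-- The numbering of the 352 vectors. -/
theorem num352 : Num RH CertO352.conds CertO352.e0.1 352 :=
  Num.of_chunk (root := CertO352.root) (tab := CertO352.tab) (NT := CertO352.NT) (words := CertO352.words)
    CertO352.hR CertO352.ok0 CertO352.cover

theorem hm9 : (511 : ℕ) = 2 ^ 9 - 1 := by norm_num

theorem chk_id : Core.allL (fun i => Nat.beq (app 9 511 u_idc i) i) (List.range 352) = true := by
  decide +kernel

theorem hid9 : ∀ i < 352, app 9 511 u_idc i = i := fun i hi =>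
  Nat.eq_of_beq_eq_true ((Core.allL_eq_true _ _).1 chk_id i (List.mem_range.2 hi))

theorem chk_c0 : monOKs CertO352.e0.1 352 9 511 c0 (tabP CertC100.tab 0) (tabC CertC100.tab 0) = true := by decide +kernel

theorem chk_c1 : wordOK CertO352.e0.1 352 9 511 c1 (CertC100.words.getD 0 []) = true := by decide +kernel

theorem chk_d0 : comp 352 9 511 d0 c0 = u_idc := by decide +kernel

theorem chk_d1 : comp 352 9 511 d1 c1 = u_idc := by decide +kernel

/-- The group, as a group of permutations of the 352 vectors. -/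
noncomputable def PP : Subgroup (Equiv.Perm (Fin 352)) := num352.phi.range

theorem rep_c0 : ∃ g ∈ PP, RR c0 g :=
  ⟨_, ⟨_, rfl⟩, num352.rep_mon (hv := (CertC100.tab_in 0 (by decide +kernel)).1) (hu := (CertC100.tab_in 0 (by decide +kernel)).2) chk_c0⟩

theorem rep_c1 : ∃ g ∈ PP, RR c1 g :=
  ⟨_, ⟨_, rfl⟩, num352.rep_word (hu := CertC100.words_in _ (by simp [CertC100.words])) chk_c1⟩

theorem rep_d0 : ∃ g ∈ PP, RR d0 g := by
  obtain ⟨g, hg, hr⟩ := rep_c0
  exact ⟨g⁻¹, PP.inv_mem hg, hr.inv hm9 hid9 chk_d0⟩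

theorem rep_d1 : ∃ g ∈ PP, RR d1 g := by
  obtain ⟨g, hg, hr⟩ := rep_c1
  exact ⟨g⁻¹, PP.inv_mem hg, hr.inv hm9 hid9 chk_d1⟩

/-- The letters. -/
def T4 : List ℕ := [c0, c1, d0, d1]

theorem rep_T4 (a : ℕ) (ha : a < 4) : ∃ g ∈ PP, RR (nthN T4 a) g := by
  interval_cases a
  · exact rep_c0
  · exact rep_c1
  · exact rep_d0
  · exact rep_d1

/-- The code of a word in the letters. -/
noncomputable def wc : List ℕ → ℕ
  | [] => u_idc
  | a :: u => force (wc u) fun q => comp 352 9 511 (nthN T4 a) q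

theorem wc_rep (u : List ℕ) (hu : u.all (fun a => Nat.blt a 4) = true) : ∃ g ∈ PP, RR (wc u) g := by
  induction u with
  | nil => exact ⟨1, one_mem _, rep_one hid9⟩
  | cons a u ih =>
    simp only [List.all_cons, Bool.and_eq_true] at hu
    obtain ⟨g, hg, hr⟩ := ih hu.2
    obtain ⟨l, hl, hlr⟩ := rep_T4 a (Nat.le_of_ble_eq_true hu.1)
    refine ⟨l * g, mul_mem hl hg, ?_⟩
    have : wc (a :: u) = comp 352 9 511 (nthN T4 a) (wc u) := by
      show force _ _ = _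
      rw [force_eq]
    rw [this]
    exact hlr.comp hm9 hr

theorem gens_words : u_T = [wa, wb].map wc := by decide +kernel

theorem gens_rep : ∀ c ∈ u_T, ∃ g ∈ PP, RR c g := by
  rw [gens_words]
  intro c hc
  obtain ⟨u, hu, rfl⟩ := List.mem_map.1 hc
  have hW : [wa, wb].all (fun u => u.all (fun a => Nat.blt a 4)) = true := by decide +kernel
  exact wc_rep u (List.all_eq_true.1 hW u hu)

/-- The stabiliser, as a group generated by codes. -/
noncomputable abbrev U : Subgroup (Equiv.Perm (Fin 352)) := H 9 511 (Equiv.refl (Fin 352)) u_T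

theorem U_le : U ≤ PP := by
  refine (closure_le _).2 ?_
  rintro g ⟨c, hc, hg⟩
  obtain ⟨g', hg', hr⟩ := gens_rep c hc
  rw [hg.unique hr]
  exact hg'

theorem gens_fix : Core.allL (fun c => Nat.beq (app 9 511 c 0) 0) u_T = true := by decide +kernel

theorem U_fix : ∀ h ∈ U, h 0 = 0 := by
  intro h hh
  refine closure_induction (p := fun h _ => h 0 = 0) ?_ ?_ ?_ ?_ hh
  · rintro g ⟨c, hc, hg⟩
    have h1 := Nat.eq_of_beq_eq_true ((Core.allL_eq_true _ _).1 gens_fix c hc)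
    have h2 : app 9 511 c 0 = ((g 0 : Fin 352) : ℕ) := hg 0
    rw [h1] at h2
    exact Fin.ext h2.symm
  · rfl
  · intro a b _ _ ha hb
    show a (b 0) = 0
    rw [hb, ha]
  · intro a _ ha
    exact (Equiv.Perm.inv_eq_iff_eq).2 ha.symm

theorem main_u : (511 : ℕ) = 2 ^ 9 - 1 ∧ (∀ i < 352, app 9 511 u_idc i = i) ∧ u_idc < 2 ^ (352 * 9) ∧
      Sem 9 511 (Equiv.refl (Fin 352)) u_L u_maskL u_levels ∧
      H 9 511 (Equiv.refl (Fin 352)) u_T = H 9 511 (Equiv.refl (Fin 352)) (topGens u_levels) ∧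
      Nat.card (H 9 511 (Equiv.refl (Fin 352)) u_T) = orderC u_levels :=
  main_of_checkAll (w := 9) (mask := 511) (e := Equiv.refl (Fin 352)) (L := u_L) (maskL := u_maskL)
    (idc := u_idc) (T := u_T) (prog := u_prog) (ls := u_levels)
    (fun c hc => (gens_rep c hc).imp fun g hg => hg.2) u_ok

theorem card_U : Nat.card U = 126000 := by
  rw [main_u.2.2.2.2.2, u_order]

/-- An element of `U` fixing the base is trivial. -/
theorem U_base : ∀ g ∈ U, (∀ b : Fin 352, (b : ℕ) ∈ [nat_lit 1, nat_lit 247, nat_lit 11] → g b = b) → g = 1 := by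
  intro g hg hfix
  obtain ⟨-, -, -, hsem, hH, -⟩ := main_u
  have hg' : g ∈ H 9 511 (Equiv.refl (Fin 352)) (topGens u_levels) := by
    rw [← hH]; exact hg
  refine Cfsg.Agent.Lib.Schur.CoverC.eq_one_of_fix_base u_levels hsem g hg' (fun a ha => hfix a ?_)
  rw [u_base] at ha
  exact ha

/-- The action is not trivial. -/
theorem not_trivial : num352.phi ≠ 1 := by
  intro h
  obtain ⟨g, ⟨x, rfl⟩, hr⟩ := rep_c0
  rw [h] at hr
  have hq : ∃ i : Fin 352, app 9 511 c0 i.1 ≠ i.1 := by decide +kernel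
  obtain ⟨i, hi⟩ := hq
  exact hi (hr i)

theorem phi_inj : Function.Injective num352.phi := by
  have := Cfsg.Agent.Lib.LeechP.HS.simple_fix.1
  rcases (MonoidHom.normal_ker num352.phi).eq_bot_or_eq_top with h | h
  · exact (MonoidHom.ker_eq_bot_iff _).1 h
  · exfalso
    apply not_trivial
    ext g
    have h1 : g ∈ num352.phi.ker := by rw [h]; trivial
    rw [MonoidHom.mem_ker.1 h1]
    rfl

theorem card_PP : Nat.card PP = 44352000 := by
  have h1 : Nat.card PP = Nat.card (FixG RH) :=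
    (Nat.card_congr (MonoidHom.ofInjective phi_inj).toEquiv).symm
  rw [h1, Cfsg.Agent.Lib.LeechP.HS.simple_fix.2]

/-- Transitivity. -/
theorem htr : ∀ x : Fin 352, ∃ g ∈ PP, g 0 = x := by
  have key : ∀ i : Fin 352, Rel (FixG RH) (((num352.equiv i).1 : L) : GolayPt → ℤ) (dec CertO352.root) :=
    fun i => CertO352.rel (num352.mem i.1 i.2)
  intro x
  obtain ⟨a, ha, hay⟩ := rel_iff.1 ((key 0).trans (key x).symm)
  refine ⟨num352.phi ⟨a, ha⟩, ⟨_, rfl⟩, ?_⟩
  exact num352.phi_eq (g := ⟨a, ha⟩) (i := 0) (j := x) (congrArg Subtype.val hay)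

theorem hstab : ∀ g ∈ PP, g 0 = 0 → g ∈ U := by
  refine Cfsg.Agent.Lib.Cores.stab_le PP U U_le 0 U_fix htr ?_
  rw [card_PP, card_U, Nat.card_eq_fintype_card, Fintype.card_fin]

/-- The stabiliser of the point `0` in the group `FixG R`. -/
def T0 : Subgroup (FixG RH) where
  carrier := {f | f.1 • (num352.equiv 0).1 = (num352.equiv 0).1}
  mul_mem' := by
    intro a b ha hb
    show (a.1 * b.1) • _ = _
    rw [mul_smul, show b.1 • (num352.equiv 0).1 = _ from hb, show a.1 • (num352.equiv 0).1 = _ from ha]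
  one_mem' := one_smul _ _
  inv_mem' := by
    intro a ha
    show a.1⁻¹ • _ = _
    rw [inv_smul_eq_iff, show a.1 • (num352.equiv 0).1 = _ from ha]

theorem phi_zero_iff (f : FixG RH) : f ∈ T0 ↔ num352.phi f 0 = 0 := by
  have h1 := num352.phi_spec f 0
  constructor
  · intro h
    have h2 : (num352.equiv (num352.phi f 0)).1 = (num352.equiv 0).1 := by
      rw [← h1]
      exact h
    exact num352.equiv.injective (Subtype.ext h2)
  · intro h
    rw [h] at h1
    exact h1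

theorem T0_map : T0.map num352.phi = U := by
  ext p
  constructor
  · rintro ⟨f, hf, rfl⟩
    exact hstab _ ⟨f, rfl⟩ ((phi_zero_iff f).1 hf)
  · intro hp
    obtain ⟨f, rfl⟩ := U_le hp
    exact ⟨f, (phi_zero_iff f).2 (U_fix _ hp), rfl⟩

theorem T0_iso : Nonempty (T0 ≃* U) :=
  ⟨(T0.equivMapOfInjective num352.phi phi_inj).trans (MulEquiv.subgroupCongr T0_map)⟩

/-! ## The vectors -/

variable {t : Co0} {v w x : L}

/-- The 352 vectors. -/
abbrev X352 (v w : L) : Set L :=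
  {x : L | sqNorm (x : GolayPt → ℤ) = 32 ∧ dotInt (v : GolayPt → ℤ) (x : GolayPt → ℤ) = 16 ∧
    dotInt (w : GolayPt → ℤ) (x : GolayPt → ℤ) = -24}

theorem mem_C352 (ht : Maps t [(v + w, nX1), (v, nU0)]) (y : L) :
    y ∈ X352 v w ↔ Cl 32 CertO352.conds ((t • y : L) : GolayPt → ℤ) := by
  rw [CertO352.conds, cl2, ht.dot (p := (v, nU0)) (by simp), ht.dot (p := (v + w, nX1)) (by simp),
    dot_sum]
  simp only [Set.mem_setOf_eq, sqNorm_smul, Nat.cast_ofNat, Nat.cast_zero, sub_zero, zero_sub]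
  rw [dotInt_comm (y : GolayPt → ℤ) (v : GolayPt → ℤ)]
  constructor
  · rintro ⟨h1, h2, h3⟩
    exact ⟨(t • y).2, h1, h2, by omega⟩
  · rintro ⟨-, h1, h2, h3⟩
    exact ⟨h1, h2, by omega⟩

theorem ncard_X352 (hv : sqNorm (v : GolayPt → ℤ) = 48) (hw : sqNorm (w : GolayPt → ℤ) = 48)
    (hvw : dotInt (v : GolayPt → ℤ) (w : GolayPt → ℤ) = -32) : (X352 v w).ncard = 352 := by
  obtain ⟨t, ht⟩ := exists_to_pair hv hw hvw
  rw [ncard_of_iff t (mem_C352 ht), CertO352.ncard_eq]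

theorem trans_X352 (hv : sqNorm (v : GolayPt → ℤ) = 48)
    (hw : sqNorm (w : GolayPt → ℤ) = 48) (hvw : dotInt (v : GolayPt → ℤ) (w : GolayPt → ℤ) = -32)
    {x x' : L} (hx : x ∈ X352 v w) (hx' : x' ∈ X352 v w) : ∃ g : Co0, g • v = v ∧ g • w = w ∧ g • x = x' := by
  obtain ⟨t, ht⟩ := exists_to_pair hv hw hvw
  obtain ⟨g, hg, h⟩ := ht.trans (R := RH) (by simp [CertC100.R]) (CertO352.rel ((mem_C352 ht x).1 hx))
    (CertO352.rel ((mem_C352 ht x').1 hx'))
  have h1 := hg (v, nU0) (by simp)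
  exact ⟨g, h1, fix_w h1 (hg (v + w, nX1) (by simp)), h⟩

theorem neg_sub_mem (hv : sqNorm (v : GolayPt → ℤ) = 48) (hw : sqNorm (w : GolayPt → ℤ) = 48)
    (hvw : dotInt (v : GolayPt → ℤ) (w : GolayPt → ℤ) = -32) {x : L} (hx : x ∈ X352 v w) :
    -w - x ∈ X352 v w := by
  obtain ⟨h1, h2, h3⟩ := hx
  have e0 : ((-w - x : L) : GolayPt → ℤ) = -(w : GolayPt → ℤ) - (x : GolayPt → ℤ) := rfl
  have s1 : sqNorm (-(w : GolayPt → ℤ) - (x : GolayPt → ℤ)) = sqNorm (w : GolayPt → ℤ) +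
      2 * dotInt (w : GolayPt → ℤ) (x : GolayPt → ℤ) + sqNorm (x : GolayPt → ℤ) := by
    unfold sqNorm dotInt
    rw [Finset.mul_sum, ← Finset.sum_add_distrib, ← Finset.sum_add_distrib]
    apply Finset.sum_congr rfl
    intro i _
    simp only [Pi.sub_apply, Pi.neg_apply]
    ring
  have s2 : ∀ a : GolayPt → ℤ, dotInt a (-(w : GolayPt → ℤ) - (x : GolayPt → ℤ)) =
      -dotInt a (w : GolayPt → ℤ) - dotInt a (x : GolayPt → ℤ) := by
    intro a
    unfold dotInt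
    rw [← Finset.sum_neg_distrib, ← Finset.sum_sub_distrib]
    apply Finset.sum_congr rfl
    intro i _
    simp only [Pi.sub_apply, Pi.neg_apply]
    ring
  refine ⟨?_, ?_, ?_⟩
  · rw [e0, s1, hw, h3, h1]
    norm_num
  · rw [e0, s2, hvw, h2]
    norm_num
  · rw [e0, s2]
    have : dotInt (w : GolayPt → ℤ) (w : GolayPt → ℤ) = 48 := by
      rw [← hw]
      unfold sqNorm dotInt
      apply Finset.sum_congr rfl
      intro i _
      ring
    rw [this, h3]
    norm_num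

/-- The stabiliser of three vectors. -/
theorem stab_iso (hv : sqNorm (v : GolayPt → ℤ) = 48) (hw : sqNorm (w : GolayPt → ℤ) = 48)
    (hvw : dotInt (v : GolayPt → ℤ) (w : GolayPt → ℤ) = -32) (hx : x ∈ X352 v w) :
    Nonempty (↥(stabilizer Co0 v ⊓ stabilizer Co0 w ⊓ stabilizer Co0 x) ≃* T0) := by
  obtain ⟨t, ht⟩ := exists_to_pair hv hw hvw
  have hw1 := (mem_C352 ht x).1 hx
  let w1 : XX CertO352.conds := ⟨t • x, hw1⟩
  obtain ⟨g, hgPP, hg0⟩ := htr (num352.equiv.symm w1)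
  obtain ⟨f, rfl⟩ := hgPP
  have hf : f.1 • (num352.equiv 0).1 = t • x := by
    have h1 := num352.phi_spec f 0
    rw [hg0, Equiv.apply_symm_apply] at h1
    exact h1
  let s : Co0 := f.1⁻¹ * t
  have hs : Maps s [(v + w, nX1), (v, nU0)] :=
    ht.mul (R := RH) (by simp [CertC100.R]) (FixG RH |>.inv_mem f.2)
  have hsx : s • x = (num352.equiv 0).1 := by
    show (f.1⁻¹ * t) • x = _
    rw [mul_smul, inv_smul_eq_iff, hf]
  have hfixs : ∀ g : Co0, g • v = v ∧ g • w = w ↔ g • (v + w) = v + w ∧ g • v = v := by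
    intro g
    constructor
    · rintro ⟨h1, h2⟩
      exact ⟨by rw [Cfsg.Agent.Lib.Leech.Lat.smul_add, h1, h2], h1⟩
    · rintro ⟨h1, h2⟩
      exact ⟨h2, fix_w h2 h1⟩
  have h1 : ∀ g : ↥(stabilizer Co0 v ⊓ stabilizer Co0 w ⊓ stabilizer Co0 x),
      s * g.1 * s⁻¹ ∈ FixG RH := by
    rintro ⟨g, ⟨hg1, hg2⟩, hg3⟩
    exact (mem_FixG_two hs g).2 ((hfixs g).1 ⟨hg1, hg2⟩)
  have h2 : ∀ f' : ↥T0, s⁻¹ * f'.1.1 * s ∈ stabilizer Co0 v ⊓ stabilizer Co0 w ⊓ stabilizer Co0 x := by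
    intro f'
    have key := (hfixs _).2 ((mem_FixG_two hs (s⁻¹ * f'.1.1 * s)).1 (by
      have : s * (s⁻¹ * f'.1.1 * s) * s⁻¹ = f'.1.1 := by group
      rw [this]
      exact f'.1.2))
    refine ⟨⟨key.1, key.2⟩, ?_⟩
    show (s⁻¹ * f'.1.1 * s) • x = x
    rw [mul_smul, mul_smul, hsx, show f'.1.1 • (num352.equiv 0).1 = _ from f'.2, ← hsx, inv_smul_smul]
  refine ⟨{ toFun := fun g => ⟨⟨s * g.1 * s⁻¹, h1 g⟩, ?_⟩
            invFun := fun f' => ⟨s⁻¹ * f'.1.1 * s, h2 f'⟩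
            left_inv := fun g => ?_
            right_inv := fun f' => ?_
            map_mul' := fun a b => ?_ }⟩
  · show (s * g.1 * s⁻¹) • (num352.equiv 0).1 = _
    have hg3 : g.1 • x = x := g.2.2
    rw [← hsx, mul_smul, mul_smul, inv_smul_smul, hg3]
  · apply Subtype.ext
    show s⁻¹ * (s * g.1 * s⁻¹) * s = g.1
    group
  · apply Subtype.ext
    apply Subtype.ext
    show s * (s⁻¹ * f'.1.1 * s) * s⁻¹ = f'.1.1
    group
  · apply Subtype.ext
    apply Subtype.ext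
    show s * (a.1 * b.1) * s⁻¹ = (s * a.1 * s⁻¹) * (s * b.1 * s⁻¹)
    group

end Cfsg.Agent.Lib.U35Iso
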