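import Cfsg.Agent.Lib.PSUBridge.Basic
import Cfsg.Agent.Lib.U35Iso.Field
import Cfsg.Agent.Lib.U35Iso.SSide

/-!
# The stabiliser is `PSU₃(5)`

Each of 175 of the 352 vectors is matched with a set of 36 isotropic points of the Hermitian plane.
-/

set_option autoImplicit false
set_option maxRecDepth 100000
set_option linter.unusedSectionVars false
set_option linter.style.longLine false

namespace Cfsg.Agent.Lib.U35Iso

open Cfsg Subgroup Matrix
open Cfsg.Agent.Lib.Golay.Core Cfsg.Agent.Lib.PSUBridge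
open Cfsg.Agent.Lib.U35Iso.Data
open _root_.Cfsg.Agent.Lib.PermComp _root_.Cfsg.Agent.Lib.PermComp.Core
open Cfsg.Agent.Lib.Leech.Cert (forceN forceN_eq)

local notation "RR" => Rep 9 511 (Equiv.refl (Fin 352))

/-! ## Code-level tests -/

/-- The isotropic points. -/
def pc (i : ℕ) : ℕ := Nat.land (Nat.shiftRight PT (24 * i)) 16777215

/-- The masks of the vectors. -/
def mt (y : ℕ) : ℕ := Nat.land (Nat.shiftRight MT (126 * y)) 85070591730234615865843651857942052863

/-- A bit of a mask. -/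
def bit (m i : ℕ) : ℕ := Nat.land (Nat.shiftRight m i) 1

/-- The image of a point is a nonzero multiple of another. -/
def scB (N V W : ℕ) : Bool :=
  (List.range 24).any fun s =>
    Nat.beq (mvi N V 0) (mulC (s + 1) (vv W 0)) && (Nat.beq (mvi N V 1) (mulC (s + 1) (vv W 1)) &&
      Nat.beq (mvi N V 2) (mulC (s + 1) (vv W 2)))

/-- The action on the points, with its inverse. -/
def ptOK (N p q : ℕ) : Bool :=
  allUpTo (fun i => forceN (app 8 255 p i) fun j => Nat.blt j 126 && scB N (pc i) (pc j)) 126 &&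
  allUpTo (fun j => forceN (app 8 255 q j) fun i => Nat.blt i 126 && Nat.beq (app 8 255 p i) j) 126

/-- The masks are permuted. -/
def maskOK (c p : ℕ) : Bool :=
  allUpTo (fun y => forceN (mt y) fun m => forceN (mt (app 9 511 c y)) fun m' =>
    allUpTo (fun i => Nat.beq (bit m' (app 8 255 p i)) (bit m i)) 126) 352

/-- The masks are different. -/
def sepOK : Bool :=
  allUpTo (fun y => forceN (mt y) fun m => Nat.beq m 0 ||
    allUpTo (fun z => Nat.beq y z || forceN (mt z) fun m' =>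
      (List.range 126).any fun i => Nat.beq (bit m i) 1 && Nat.beq (bit m' i) 0) 352) 352

/-- Two different isotropic points are not perpendicular. -/
def hermOK : Bool :=
  allUpTo (fun i => allUpTo (fun j => if i = j then Nat.beq (hC2 (pc i) (pc j)) 0 else !(Nat.beq (hC2 (pc i) (pc j)) 0)) 126) 126

theorem sepOK_true : sepOK = true := by decide +kernel
theorem hermOK_true : hermOK = true := by decide +kernel

def ca : ℕ := u_T.getD 0 0
def cb : ℕ := u_T.getD 1 0
theorem u_T_eq : u_T = [ca, cb] := by decide +kernel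

theorem pta : ptOK Aa pa qa = true := by decide +kernel
theorem ptb : ptOK Ab pb qb = true := by decide +kernel
theorem maska : maskOK ca pa = true := by decide +kernel
theorem maskb : maskOK cb pb = true := by decide +kernel
theorem orth_a : orthB Aa = true := by decide +kernel
theorem orth_b : orthB Ab = true := by decide +kernel
theorem det_a : detC Aa = 1 := by decide +kernel
theorem det_b : detC Ab = 1 := by decide +kernel
theorem base_masks : ∀ b ∈ [1, 247, 11], Nat.beq (mt b) 0 = false := by decide +kernel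

/-! ## The field -/

section K

variable {K : Type*} [Field K] {r : K} (hr : r * r = 2) (h5 : (5 : K) = 0)

/-- The closed sets attached to the vectors. -/
def LL (r : K) (y : Fin 352) : ScSet 3 K :=
  ⟨{v | ∃ c : K, c ≠ 0 ∧ ∃ i < 126, bit (mt y.1) i = 1 ∧ v = c • toV r (pc i)}, by
    rintro d hd _ ⟨c, hc, i, hi, h1, rfl⟩
    exact ⟨d * c, mul_ne_zero hd hc, i, hi, h1, by rw [smul_smul]⟩⟩

include hr h5

theorem scB_sound {N V W : ℕ} (h : scB N V W = true) :
    ∃ s : K, s ≠ 0 ∧ toK r N *ᵥ toV r V = s • toV r W := by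
  unfold scB at h
  simp only [List.any_eq_true, Bool.and_eq_true, List.mem_range] at h
  obtain ⟨s, hs, h0, h1, h2⟩ := h
  refine ⟨φ r (s + 1), ?_, ?_⟩
  · intro h
    have h3 : φ r (s + 1) = φ r 0 := by rw [h, φ_zero hr h5]
    have h4 := φ_inj hr h5 (x := s + 1) (by omega) (by norm_num) h3
    omega
  · have key : ∀ j : ℕ, φ r (mulC (s + 1) (vv W j)) = φ r (s + 1) * φ r (vv W j) := fun j => φ_mul hr h5 _ _
    funext j
    rw [mv_toV hr h5]
    simp only [Pi.smul_apply, smul_eq_mul]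
    show _ = φ r (s + 1) * φ r (vv W j.1)
    fin_cases j
    · show φ r (mvi N V 0) = φ r (s + 1) * φ r (vv W 0)
      rw [Nat.eq_of_beq_eq_true h0, key]
    · show φ r (mvi N V 1) = φ r (s + 1) * φ r (vv W 1)
      rw [Nat.eq_of_beq_eq_true h1, key]
    · show φ r (mvi N V 2) = φ r (s + 1) * φ r (vv W 2)
      rw [Nat.eq_of_beq_eq_true h2, key]

theorem gen_sound {N c p q : ℕ} {h : Equiv.Perm (Fin 352)} {x : ↥(SU 3 K 5)}
    (hx : ((x.1 : Matrix.SpecialLinearGroup (Fin 3) K) : Matrix (Fin 3) (Fin 3) K) = toK r N)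
    (hrep : RR c h) (hp : ptOK N p q = true) (hm : maskOK c p = true) (y : Fin 352) :
    LL r (h y) = actS x (LL r y) := by
  unfold ptOK at hp
  rw [Bool.and_eq_true] at hp
  obtain ⟨hp1, hp2⟩ := hp
  have hz : app 9 511 c y.1 = (h y).1 := hrep y
  have hm1 := allUpTo_iff.1 hm y.1 y.2
  simp only [forceN_eq] at hm1
  rw [hz] at hm1
  have hpt : ∀ i < 126, app 8 255 p i < 126 ∧ ∃ s : K, s ≠ 0 ∧ actV x (toV r (pc i)) = s • toV r (pc (app 8 255 p i)) := by
    intro i hi
    have h1 := allUpTo_iff.1 hp1 i hi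
    simp only [forceN_eq, Bool.and_eq_true] at h1
    refine ⟨Nat.le_of_ble_eq_true h1.1, ?_⟩
    obtain ⟨s, hs, h2⟩ := scB_sound hr h5 h1.2
    refine ⟨s, hs, ?_⟩
    rw [← h2]
    show ((x.1 : Matrix.SpecialLinearGroup (Fin 3) K) : Matrix (Fin 3) (Fin 3) K).mulVec _ = _
    rw [hx]
  have hq : ∀ j < 126, ∃ i < 126, app 8 255 p i = j := by
    intro j hj
    have h1 := allUpTo_iff.1 hp2 j hj
    simp only [forceN_eq, Bool.and_eq_true] at h1
    exact ⟨_, Nat.le_of_ble_eq_true h1.1, Nat.eq_of_beq_eq_true h1.2⟩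
  have hbit : ∀ i < 126, bit (mt (h y).1) (app 8 255 p i) = bit (mt y.1) i := fun i hi =>
    Nat.eq_of_beq_eq_true (allUpTo_iff.1 hm1 i hi)
  apply Subtype.ext
  ext v
  rw [actS_coe]
  constructor
  · rintro ⟨c', hc', j, hj, hb, rfl⟩
    obtain ⟨i, hi, rfl⟩ := hq j hj
    obtain ⟨-, s, hs, hA⟩ := hpt i hi
    refine ⟨(c' * s⁻¹) • toV r (pc i), ⟨c' * s⁻¹, mul_ne_zero hc' (inv_ne_zero hs), i, hi, ?_, rfl⟩, ?_⟩
    · rw [← hbit i hi]
      exact hb
    · rw [actV_smul, hA, smul_smul, mul_assoc, inv_mul_cancel₀ hs, mul_one]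
  · rintro ⟨_, ⟨c', hc', i, hi, hb, rfl⟩, rfl⟩
    obtain ⟨hj, s, hs, hA⟩ := hpt i hi
    refine ⟨c' * s, mul_ne_zero hc' hs, _, hj, ?_, ?_⟩
    · rw [hbit i hi]
      exact hb
    · rw [actV_smul, hA, smul_smul]

/-- The sets separate. -/
theorem LL_ne {y z : Fin 352} (hy : Nat.beq (mt y.1) 0 = false) (hne : y ≠ z) : LL r y ≠ LL r z := by
  intro he
  have h1 := allUpTo_iff.1 sepOK_true y.1 y.2
  simp only [forceN_eq] at h1
  rw [hy, Bool.false_or] at h1
  have h2 := allUpTo_iff.1 h1 z.1 z.2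
  have h3 : Nat.beq y.1 z.1 = false := by
    cases h0 : Nat.beq y.1 z.1 with
    | true => exact absurd (Fin.ext (Nat.eq_of_beq_eq_true h0)) hne
    | false => rfl
  rw [h3, Bool.false_or] at h2
  simp only [forceN_eq, List.any_eq_true, Bool.and_eq_true, List.mem_range] at h2
  obtain ⟨i, hi, e1, e2⟩ := h2
  have hmem : toV r (pc i) ∈ (LL r y).1 :=
    ⟨1, one_ne_zero, i, hi, Nat.eq_of_beq_eq_true e1, by rw [one_smul]⟩
  rw [he] at hmem
  obtain ⟨c, -, j, hj, hb, hv⟩ := hmem
  have hij : i ≠ j := by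
    rintro rfl
    rw [Nat.eq_of_beq_eq_true e2] at hb
    exact absurd hb (by norm_num)
  have h4 := allUpTo_iff.1 (allUpTo_iff.1 hermOK_true i hi) j hj
  rw [if_neg hij] at h4
  have h5' := herm_ne hr h5 h4
  apply h5'
  have h6 := allUpTo_iff.1 (allUpTo_iff.1 hermOK_true j hj) j hj
  rw [if_pos rfl] at h6
  have h7 := herm_zero hr h5 h6
  rw [hv]
  unfold hermForm at h7 ⊢
  simp only [Pi.smul_apply, smul_eq_mul]
  rw [← mul_zero c, ← h7, Finset.mul_sum]
  apply Finset.sum_congr rfl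
  intro a _
  ring

end K

section Final

variable {K : Type*} [Field K] [Fintype K] (hK : Fintype.card K = 25)
include hK

theorem iso_U : Nonempty (U ≃* PSU 3 K 5) := by
  classical
  obtain ⟨r, hr⟩ := exists_r hK
  have h5 := five_zero hK
  have hq : Fintype.card K = 5 ^ 2 := by rw [hK]; norm_num
  have hfin : Finite (PSU 3 K 5) := inferInstance
  obtain ⟨g1, -, hg1⟩ := gens_rep ca (by rw [u_T_eq]; simp)
  obtain ⟨g2, -, hg2⟩ := gens_rep cb (by rw [u_T_eq]; simp)
  let x1 : ↥(SU 3 K 5) := ⟨⟨toK r Aa, det_toK hr h5 det_a⟩, iso_of_orth hr h5 orth_a⟩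
  let x2 : ↥(SU 3 K 5) := ⟨⟨toK r Ab, det_toK hr h5 det_b⟩, iso_of_orth hr h5 orth_b⟩
  let ρ := rho hq (n := 3) (by norm_num)
  let S : Set (PSU 3 K 5 × Equiv.Perm (Fin 352)) :=
    {(QuotientGroup.mk x1, g1), (QuotientGroup.mk x2, g2)}
  refine bridge ρ (LL r) U S ?_ ?_ ?_ ?_
  · intro s hs y
    rcases hs with rfl | hs
    · exact gen_sound hr h5 (N := Aa) rfl hg1 pta maska y
    · rw [Set.mem_singleton_iff] at hs
      subst hs
      exact gen_sound hr h5 (N := Ab) rfl hg2 ptb maskb y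
  · show Subgroup.closure _ = Subgroup.closure _
    congr 1
    ext g
    constructor
    · rintro ⟨c, hc, hg⟩
      rw [u_T_eq] at hc
      simp only [List.mem_cons, List.not_mem_nil, or_false] at hc
      rcases hc with rfl | rfl
      · exact ⟨_, Or.inl rfl, (hg.unique hg1).symm⟩
      · exact ⟨_, Or.inr rfl, (hg.unique hg2).symm⟩
    · rintro ⟨s, hs, rfl⟩
      rcases hs with rfl | hs
      · exact ⟨ca, by rw [u_T_eq]; simp, hg1⟩
      · rw [Set.mem_singleton_iff] at hs
        subst hs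
        exact ⟨cb, by rw [u_T_eq]; simp, hg2⟩
  · intro b hb hL
    apply U_base b hb
    intro y hy
    by_contra hne
    exact LL_ne hr h5 (base_masks y.1 hy) (Ne.symm hne) (hL y).symm
  · rw [card_U, card_PSU35 hK]

end Final

end Cfsg.Agent.Lib.U35Iso
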